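import Cfsg.Agent.Lib.SporadicB.J3.DataT
import Cfsg.Agent.Lib.SporadicB.J3.DataLines0
import Cfsg.Agent.Lib.SporadicB.J3.Chunk

/-! Checks for the orbit of the first coordinate line under 3.J3. -/

set_option autoImplicit false
set_option Elab.async false
set_option linter.all false

namespace CfsgLib.SporadicB.J3

/-- Multiplication by the scalar with the given code. -/
noncomputable def scl (c v : Nat) : Nat :=
  bif Nat.beq c 1 then v else bif Nat.beq c 2 then om v else om (om v)

/-- The bit of the first nonzero coordinate of a mask. -/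
noncomputable def lowBit (m : Nat) : Nat := Nat.sub m (Nat.land m (Nat.sub m 1))

/-- Support mask of a vector. -/
noncomputable def mask (v : Nat) : Nat := Nat.lor (Nat.land v 511) (Nat.shiftRight v 9)

/-- The first nonzero coordinate is one. -/
noncomputable def normd (v : Nat) : Bool :=
  Nat.blt v 262144 && !Nat.beq v 0 && Nat.beq (Nat.land (Nat.shiftRight v 9) (lowBit (mask v))) 0

/-- Tree edge of an orbit of lines. -/
noncomputable def lineStep (L rk via src sc : Nat → Nat) (g0 g1 n root j : Nat) : Bool :=
  bif Nat.beq j root then true else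
    Nat.blt (src j) n && Nat.blt (rk (src j)) (rk j) && Nat.blt (sc j) 4 && !Nat.beq (sc j) 0 &&
      Nat.beq (mv (bif Nat.beq (via j) 0 then g0 else g1) (L (src j))) (scl (sc j) (L j))

namespace Data

open CfsgLib.SporRecognition.CosetCert (allBelow allPow allPow_append)

noncomputable def eoStep (j : Nat) : Bool :=
  lineStep eo eork eovia eosrc eosc s0 s1 23256 0 j && normd (eo j) &&
    (bif Nat.beq j 0 then Nat.beq (eo j) 1 else Nat.blt (eo (Nat.sub j 1)) (eo j)) &&
    Nat.blt (eot0 j) 23256 && Nat.blt (eoc0 j) 4 && !Nat.beq (eoc0 j) 0 &&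
      Nat.beq (mv s0 (eo j)) (scl (eoc0 j) (eo (eot0 j))) &&
    Nat.blt (eot1 j) 23256 && Nat.blt (eoc1 j) 4 && !Nat.beq (eoc1 j) 0 &&
      Nat.beq (mv s1 (eo j)) (scl (eoc1 j) (eo (eot1 j)))

theorem eo_ok_0 : allPow 23256 eoStep 11 0 = true := by decide +kernel

theorem eo_ok_1 : allPow 23256 eoStep 11 2048 = true := by decide +kernel

theorem eo_ok_2 : allPow 23256 eoStep 11 4096 = true := by decide +kernel

theorem eo_ok_3 : allPow 23256 eoStep 11 6144 = true := by decide +kernel

theorem eo_ok_4 : allPow 23256 eoStep 11 8192 = true := by decide +kernel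

theorem eo_ok_5 : allPow 23256 eoStep 11 10240 = true := by decide +kernel

theorem eo_ok_6 : allPow 23256 eoStep 11 12288 = true := by decide +kernel

theorem eo_ok_7 : allPow 23256 eoStep 11 14336 = true := by decide +kernel

theorem eo_ok_8 : allPow 23256 eoStep 11 16384 = true := by decide +kernel

theorem eo_ok_9 : allPow 23256 eoStep 11 18432 = true := by decide +kernel

theorem eo_ok_10 : allPow 23256 eoStep 11 20480 = true := by decide +kernel

theorem eo_ok_11 : allPow 23256 eoStep 11 22528 = true := by decide +kernel

theorem eo_ok_12 : allPow 23256 eoStep 11 24576 = true := by decide +kernel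

theorem eo_ok_13 : allPow 23256 eoStep 11 26624 = true := by decide +kernel

theorem eo_ok_14 : allPow 23256 eoStep 11 28672 = true := by decide +kernel

theorem eo_ok_15 : allPow 23256 eoStep 11 30720 = true := by decide +kernel

theorem eo_ok : allBelow 15 23256 eoStep = true :=
  allBelow_of_allPow rfl (allPow_append (allPow_append (allPow_append (allPow_append eo_ok_0 eo_ok_1) (allPow_append eo_ok_2 eo_ok_3)) (allPow_append (allPow_append eo_ok_4 eo_ok_5) (allPow_append eo_ok_6 eo_ok_7))) (allPow_append (allPow_append (allPow_append eo_ok_8 eo_ok_9) (allPow_append eo_ok_10 eo_ok_11)) (allPow_append (allPow_append eo_ok_12 eo_ok_13) (allPow_append eo_ok_14 eo_ok_15))))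

end Data

end CfsgLib.SporadicB.J3
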