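import Cfsg.Agent.Lib.SporadicB.J3.LinesCheck0
import Cfsg.Agent.Lib.SporadicB.J3.DataLines1
import Cfsg.Agent.Lib.SporadicB.J3.Chunk

/-! Checks for the orbit of the isotropic lines under 3.J3. -/

set_option autoImplicit false
set_option Elab.async false
set_option linter.all false

namespace CfsgLib.SporadicB.J3.Data

open CfsgLib.SporRecognition.CosetCert (allBelow allPow allPow_append)

noncomputable def isoStep (j : Nat) : Bool := lineStep iso isork isovia isosrc isosc s0 s1 43605 1947 j

theorem iso_ok_0 : allPow 43605 isoStep 12 0 = true := by decide +kernel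

theorem iso_ok_1 : allPow 43605 isoStep 12 4096 = true := by decide +kernel

theorem iso_ok_2 : allPow 43605 isoStep 12 8192 = true := by decide +kernel

theorem iso_ok_3 : allPow 43605 isoStep 12 12288 = true := by decide +kernel

theorem iso_ok_4 : allPow 43605 isoStep 12 16384 = true := by decide +kernel

theorem iso_ok_5 : allPow 43605 isoStep 12 20480 = true := by decide +kernel

theorem iso_ok_6 : allPow 43605 isoStep 12 24576 = true := by decide +kernel

theorem iso_ok_7 : allPow 43605 isoStep 12 28672 = true := by decide +kernel

theorem iso_ok_8 : allPow 43605 isoStep 12 32768 = true := by decide +kernel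

theorem iso_ok_9 : allPow 43605 isoStep 12 36864 = true := by decide +kernel

theorem iso_ok_10 : allPow 43605 isoStep 12 40960 = true := by decide +kernel

theorem iso_ok_11 : allPow 43605 isoStep 12 45056 = true := by decide +kernel

theorem iso_ok_12 : allPow 43605 isoStep 12 49152 = true := by decide +kernel

theorem iso_ok_13 : allPow 43605 isoStep 12 53248 = true := by decide +kernel

theorem iso_ok_14 : allPow 43605 isoStep 12 57344 = true := by decide +kernel

theorem iso_ok_15 : allPow 43605 isoStep 12 61440 = true := by decide +kernel

theorem iso_ok : allBelow 16 43605 isoStep = true :=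
  allBelow_of_allPow rfl (allPow_append (allPow_append (allPow_append (allPow_append iso_ok_0 iso_ok_1) (allPow_append iso_ok_2 iso_ok_3)) (allPow_append (allPow_append iso_ok_4 iso_ok_5) (allPow_append iso_ok_6 iso_ok_7))) (allPow_append (allPow_append (allPow_append iso_ok_8 iso_ok_9) (allPow_append iso_ok_10 iso_ok_11)) (allPow_append (allPow_append iso_ok_12 iso_ok_13) (allPow_append iso_ok_14 iso_ok_15))))

end CfsgLib.SporadicB.J3.Data
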