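import Cfsg.Agent.Lib.SporadicB.J3.LinesCheck0
import Cfsg.Agent.Lib.SporadicB.J3.DataLines1
import Cfsg.Agent.Lib.SporadicB.J3.Chunk

/-! Every isotropic vector is a multiple of a listed one. -/

set_option autoImplicit false
set_option Elab.async false
set_option linter.all false

namespace CfsgLib.SporadicB.J3

/-- Binary search. -/
noncomputable def search (L : Nat → Nat) (n v : Nat) (fuel : Nat) : Nat → Nat :=
  Nat.rec (fun lo => lo)
    (fun f ih lo =>
      bif Nat.blt (Nat.add lo (Nat.pow 2 f)) n && Nat.ble (L (Nat.add lo (Nat.pow 2 f))) v
        then ih (Nat.add lo (Nat.pow 2 f)) else ih lo) fuel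

/-- `v` is in the list. -/
noncomputable def found (L : Nat → Nat) (n v : Nat) : Bool :=
  Nat.blt (search L n v 16 0) n && Nat.beq (L (search L n v 16 0)) v

/-- Parities of the masks. -/
noncomputable def parity (m : Nat) : Bool :=
  Nat.beq (Nat.land (Nat.xor (Nat.xor (Nat.xor m (Nat.shiftRight m 1)) (Nat.xor (Nat.shiftRight m 2) (Nat.shiftRight m 3)))
    (Nat.xor (Nat.xor (Nat.xor (Nat.shiftRight m 4) (Nat.shiftRight m 5)) (Nat.xor (Nat.shiftRight m 6) (Nat.shiftRight m 7)))
      (Nat.shiftRight m 8))) 1) 1

namespace Data

open CfsgLib.SporRecognition.CosetCert (allBelow allPow allPow_append)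

noncomputable def covStep (v : Nat) : Bool :=
  bif !Nat.beq v 0 && Nat.beq (Nat.land (Nat.shiftRight v 9) (lowBit (mask v))) 0 && !parity (mask v)
    then found iso 43605 v else true

theorem cov_ok_0 : allPow 262144 covStep 14 0 = true := by decide +kernel

theorem cov_ok_1 : allPow 262144 covStep 14 16384 = true := by decide +kernel

theorem cov_ok_2 : allPow 262144 covStep 14 32768 = true := by decide +kernel

theorem cov_ok_3 : allPow 262144 covStep 14 49152 = true := by decide +kernel

theorem cov_ok_4 : allPow 262144 covStep 14 65536 = true := by decide +kernel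

theorem cov_ok_5 : allPow 262144 covStep 14 81920 = true := by decide +kernel

theorem cov_ok_6 : allPow 262144 covStep 14 98304 = true := by decide +kernel

theorem cov_ok_7 : allPow 262144 covStep 14 114688 = true := by decide +kernel

theorem cov_ok_8 : allPow 262144 covStep 14 131072 = true := by decide +kernel

theorem cov_ok_9 : allPow 262144 covStep 14 147456 = true := by decide +kernel

theorem cov_ok_10 : allPow 262144 covStep 14 163840 = true := by decide +kernel

theorem cov_ok_11 : allPow 262144 covStep 14 180224 = true := by decide +kernel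

theorem cov_ok_12 : allPow 262144 covStep 14 196608 = true := by decide +kernel

theorem cov_ok_13 : allPow 262144 covStep 14 212992 = true := by decide +kernel

theorem cov_ok_14 : allPow 262144 covStep 14 229376 = true := by decide +kernel

theorem cov_ok_15 : allPow 262144 covStep 14 245760 = true := by decide +kernel

theorem cov_ok : allBelow 18 262144 covStep = true :=
  allBelow_of_allPow rfl (allPow_append (allPow_append (allPow_append (allPow_append cov_ok_0 cov_ok_1) (allPow_append cov_ok_2 cov_ok_3)) (allPow_append (allPow_append cov_ok_4 cov_ok_5) (allPow_append cov_ok_6 cov_ok_7))) (allPow_append (allPow_append (allPow_append cov_ok_8 cov_ok_9) (allPow_append cov_ok_10 cov_ok_11)) (allPow_append (allPow_append cov_ok_12 cov_ok_13) (allPow_append cov_ok_14 cov_ok_15))))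

end Data

end CfsgLib.SporadicB.J3
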