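import Cfsg.Agent.Lib.SporadicB.J3.Group
import Cfsg.Agent.Lib.SporadicB.J3.LinesCheck0
import Cfsg.Agent.Lib.SporadicB.J3.LinesCheck1
import Cfsg.Agent.Lib.SporadicB.J3.LinesCheck2

/-! Orbits of 3.J3 on lines. -/

set_option autoImplicit false
set_option linter.all false

namespace CfsgLib.SporadicB.J3

open Cfsg.Spor Data Matrix
open CfsgLib.SporRecognition.CosetCert (allBelow allBelow_spec)

attribute [local irreducible] eo eork eovia eosrc eosc eot0 eoc0 eot1 eoc1 iso isork isovia isosrc isosc s0 s1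

theorem lowBit_pow : ∀ m : Fin 512, (m : Nat) = 0 ∨ ∃ p : Fin 9, lowBit m = 2 ^ (p : Nat) ∧
    (m : Nat).testBit p = true := by decide +kernel

theorem parity_spec : ∀ m : Fin 512, parity m =
    ((((((((((m : Nat).testBit 0) ^^ ((m : Nat).testBit 1)) ^^ ((m : Nat).testBit 2)) ^^ ((m : Nat).testBit 3)) ^^
      ((m : Nat).testBit 4)) ^^ ((m : Nat).testBit 5)) ^^ ((m : Nat).testBit 6)) ^^ ((m : Nat).testBit 7)) ^^
      ((m : Nat).testBit 8)) := by decide +kernel

theorem mask_lt {v : Nat} (hv : v < 2 ^ 18) : mask v < 512 := by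
  show (v &&& 511) ||| (v >>> 9) < 2 ^ 9
  apply Nat.or_lt_two_pow (Nat.lt_succ_of_le Nat.and_le_right)
  rw [Nat.shiftRight_eq_div_pow]
  omega

theorem mask_testBit (v : Nat) {p : Nat} (hp : p < 9) :
    (mask v).testBit p = (v.testBit p || v.testBit (p + 9)) := by
  show ((v &&& (2 ^ 9 - 1)) ||| (v >>> 9)).testBit p = _
  rw [Nat.testBit_or, Nat.testBit_and, Nat.testBit_two_pow_sub_one, Nat.testBit_shiftRight, Nat.add_comm 9]
  simp [hp]

theorem normd_iff {v : Nat} (hv : v < 2 ^ 18) :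
    normd v = true ↔ v ≠ 0 ∧ ∃ p, p < 9 ∧ (mask v).testBit p = true ∧ v.testBit (p + 9) = false ∧
      lowBit (mask v) = 2 ^ p := by
  have hm := mask_lt hv
  unfold normd
  simp only [Bool.and_eq_true, Nat.blt_eq, Bool.not_eq_true', Nat.beq_eq]
  constructor
  · rintro ⟨⟨-, h0⟩, hl⟩
    have hv0 : v ≠ 0 := Nat.ne_of_beq_eq_false h0
    rcases lowBit_pow ⟨_, hm⟩ with h | ⟨p, hp, hb⟩
    · exfalso
      apply hv0
      apply Nat.eq_of_testBit_eq
      intro i
      rw [Nat.zero_testBit]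
      by_cases hi : i < 18
      · have : ∀ p, p < 9 → (v.testBit p || v.testBit (p + 9)) = false := by
          intro p hp
          rw [← mask_testBit v hp, show mask v = 0 from h, Nat.zero_testBit]
        by_cases h9 : i < 9
        · exact (Bool.or_eq_false_iff.mp (this i h9)).1
        · have := (Bool.or_eq_false_iff.mp (this (i - 9) (by omega))).2
          rwa [Nat.sub_add_cancel (by omega)] at this
      · exact Nat.testBit_lt_two_pow (hv.trans_le (Nat.pow_le_pow_right (by norm_num) (by omega)))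
    · refine ⟨hv0, p, p.2, hb, ?_, hp⟩
      have hl' : ((v >>> 9) &&& 2 ^ (p : Nat)) = 0 := hp ▸ hl
      have := congrArg (fun x => x.testBit p) hl'
      simp [Nat.testBit_and, Nat.testBit_shiftRight, Nat.testBit_two_pow, Nat.add_comm 9] at this
      exact this
  · rintro ⟨hv0, p, hp, -, hb, hl⟩
    refine ⟨⟨by simpa using hv, ?_⟩, ?_⟩
    · rw [← Bool.not_eq_true, Nat.beq_eq]; exact hv0
    · show (v >>> 9) &&& lowBit (mask v) = 0
      rw [hl]
      apply Nat.eq_of_testBit_eq
      intro i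
      rw [Nat.testBit_and, Nat.testBit_shiftRight, Nat.testBit_two_pow, Nat.zero_testBit]
      by_cases h : p = i
      · subst h; rw [Nat.add_comm]; simp [hb]
      · simp [h]

theorem om_lt {v : Nat} (hv : v < 2 ^ 18) : om v < 2 ^ 18 := by
  show (v >>> 9) + ((v >>> 9) ^^^ (v &&& 511)) <<< 9 < 2 ^ 18
  have hh : v >>> 9 < 2 ^ 9 := by rw [Nat.shiftRight_eq_div_pow]; omega
  have hl : (v >>> 9) ^^^ (v &&& 511) < 2 ^ 9 :=
    Nat.xor_lt_two_pow hh (Nat.lt_succ_of_le Nat.and_le_right)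
  rw [Nat.shiftLeft_eq]
  omega

theorem om_testBit {v : Nat} (hv : v < 2 ^ 18) {p : Nat} (hp : p < 9) :
    (om v).testBit p = v.testBit (p + 9) ∧
      (om v).testBit (p + 9) = (v.testBit (p + 9) ^^ v.testBit p) := by
  have hh : v >>> 9 < 2 ^ 9 := by rw [Nat.shiftRight_eq_div_pow]; omega
  have hom : om v = 2 ^ 9 * ((v >>> 9) ^^^ (v &&& 511)) + (v >>> 9) := by
    show (v >>> 9) + ((v >>> 9) ^^^ (v &&& 511)) <<< 9 = _
    rw [Nat.shiftLeft_eq]
    ring
  constructor
  · rw [hom, Nat.testBit_two_pow_mul_add _ hh, if_pos hp, Nat.testBit_shiftRight, Nat.add_comm]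
  · rw [hom, Nat.testBit_two_pow_mul_add _ hh, if_neg (by omega), Nat.add_sub_cancel, Nat.testBit_xor,
      Nat.testBit_shiftRight, Nat.add_comm 9, Nat.testBit_and, show (511 : Nat) = 2 ^ 9 - 1 from rfl,
      Nat.testBit_two_pow_sub_one]
    simp [hp]

theorem mask_om {v : Nat} (hv : v < 2 ^ 18) : mask (om v) = mask v := by
  apply Nat.eq_of_testBit_eq
  intro i
  by_cases hi : i < 9
  · obtain ⟨h1, h2⟩ := om_testBit hv hi
    rw [mask_testBit _ hi, mask_testBit _ hi, h1, h2]
    cases v.testBit i <;> cases v.testBit (i + 9) <;> rfl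
  · have hp : 512 ≤ 2 ^ i := le_trans (by norm_num : 512 ≤ 2 ^ 9) (Nat.pow_le_pow_right (by norm_num) (by omega))
    rw [Nat.testBit_lt_two_pow ((mask_lt (om_lt hv)).trans_le hp), Nat.testBit_lt_two_pow ((mask_lt hv).trans_le hp)]

theorem exists_normd {v : Nat} (hv : v < 2 ^ 18) (h0 : v ≠ 0) :
    normd v = true ∨ normd (om v) = true ∨ normd (om (om v)) = true := by
  have hm := mask_lt hv
  have hv1 := om_lt hv
  have hv2 := om_lt hv1
  rcases lowBit_pow ⟨_, hm⟩ with h | ⟨p, hp, hb⟩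
  · exfalso
    apply h0
    apply Nat.eq_of_testBit_eq
    intro i
    rw [Nat.zero_testBit]
    have : ∀ p, p < 9 → (v.testBit p || v.testBit (p + 9)) = false := by
      intro p hp
      rw [← mask_testBit v hp, show mask v = 0 from h, Nat.zero_testBit]
    by_cases h9 : i < 9
    · exact (Bool.or_eq_false_iff.mp (this i h9)).1
    · by_cases hi : i < 18
      · have := (Bool.or_eq_false_iff.mp (this (i - 9) (by omega))).2
        rwa [Nat.sub_add_cancel (by omega)] at this
      · exact Nat.testBit_lt_two_pow (hv.trans_le (Nat.pow_le_pow_right (by norm_num) (by omega)))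
  · have hor := mask_testBit v p.2
    rw [hb] at hor
    obtain ⟨a1, a2⟩ := om_testBit hv p.2
    obtain ⟨b1, b2⟩ := om_testBit hv1 p.2
    have mk : ∀ u, u < 2 ^ 18 → mask u = mask v → u.testBit (p + 9) = false → normd u = true := by
      intro u hu hmu hub
      refine (normd_iff hu).mpr ⟨?_, p, p.2, by rw [hmu]; exact hb, hub, by rw [hmu]; exact hp⟩
      rintro rfl
      have hb' : (mask v).testBit p = true := hb
      rw [← hmu] at hb'
      simp [mask] at hb'
    cases h9 : v.testBit (p + 9)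
    · exact Or.inl (mk v hv rfl h9)
    · cases h1 : v.testBit p
      · right; right
        exact mk _ hv2 ((mask_om hv1).trans (mask_om hv)) (by rw [b2, a1, a2, h9, h1]; rfl)
      · right; left
        exact mk _ hv1 (mask_om hv) (by rw [a2, h9, h1]; rfl)

theorem scl_lt {v c : Nat} (hv : v < 2 ^ 18) : scl c v < 2 ^ 18 := by
  unfold scl
  cases Nat.beq c 1 <;> cases Nat.beq c 2 <;> first | exact hv | exact om_lt hv | exact om_lt (om_lt hv)

theorem scl_one (v : Nat) : scl 1 v = v := rfl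
theorem scl_two (v : Nat) : scl 2 v = om v := rfl
theorem scl_three (v : Nat) : scl 3 v = om (om v) := rfl

theorem eq_of_normd_scl {u v c : Nat} (hu : normd u = true) (hv : normd v = true) (hc : 1 ≤ c ∧ c ≤ 3)
    (h : u = scl c v) : u = v := by
  have hv' : v < 2 ^ 18 := by
    simp only [normd, Bool.and_eq_true, Nat.blt_eq] at hv
    exact hv.1.1
  have hu' : u < 2 ^ 18 := h ▸ scl_lt hv'
  obtain ⟨-, p, hp, hpm, hph, hpl⟩ := (normd_iff hv').mp hv
  obtain ⟨-, q, hq, hqm, hqh, hql⟩ := (normd_iff hu').mp hu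
  obtain ⟨h1, h2⟩ := hc
  interval_cases c
  · exact h
  all_goals exfalso
  · rw [scl_two] at h
    subst h
    rw [mask_om hv', hpl] at hql
    obtain rfl : p = q := Nat.pow_right_injective (le_refl 2) hql
    obtain ⟨a1, a2⟩ := om_testBit hv' hp
    rw [mask_testBit _ hp, hph] at hpm
    rw [a2, hph] at hqh
    simp_all
  · rw [scl_three] at h
    subst h
    rw [mask_om (om_lt hv'), mask_om hv', hpl] at hql
    obtain rfl : p = q := Nat.pow_right_injective (le_refl 2) hql
    obtain ⟨a1, a2⟩ := om_testBit hv' hp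
    obtain ⟨b1, b2⟩ := om_testBit (om_lt hv') hp
    rw [mask_testBit _ hp, hph] at hpm
    rw [b2, a1, a2, hph] at hqh
    simp_all

theorem search_found {L : Nat → Nat} {n v : Nat} (h : found L n v = true) : ∃ j, j < n ∧ L j = v := by
  simp only [found, Bool.and_eq_true, Nat.blt_eq] at h
  exact ⟨_, h.1, Nat.eq_of_beq_eq_true h.2⟩

section

variable {F : Type*} [Field F] [Fintype F] [CharP F 2] {ω : F} (hω : ω ^ 2 + ω + 1 = 0)

include hω in
theorem vec_scl {v : Nat} (hv : v < 2 ^ 18) {c : Nat} (h1 : 1 ≤ c) (h3 : c ≤ 3) :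
    ∃ a : F, a ≠ 0 ∧ vec F ω (scl c v) = a • vec F ω v := by
  obtain ⟨w0, -, -⟩ := omega_facts hω
  interval_cases c
  · exact ⟨1, one_ne_zero, by rw [scl_one, one_smul]⟩
  · exact ⟨ω, w0, by rw [scl_two, vec_om hω hv]⟩
  · exact ⟨ω * ω, mul_ne_zero w0 w0, by rw [scl_three, vec_om hω (om_lt hv), vec_om hω hv, smul_smul]⟩

/-- `v` is a nonzero multiple of an image of `w`. -/
def Reach (F : Type*) [Field F] (ω : F) (w v : Nat) : Prop :=
  ∃ g ∈ threeJ3 F ω, ∃ a : F, a ≠ 0 ∧ (g : Matrix F9 F9 F) *ᵥ vec F ω w = a • vec F ω v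

include hω in
theorem reach_of_tree {L rk via src sc : Nat → Nat} {n root : Nat} (hL : ∀ j, j < n → L j < 2 ^ 18)
    (hroot : root < n) (h : ∀ j, j < n → lineStep L rk via src sc s0 s1 n root j = true) :
    ∀ j, j < n → Reach F ω (L root) (L j) := by
  intro j
  induction hk : rk j using Nat.strongRecOn generalizing j with
  | _ k ih =>
    intro hj
    have := h j hj
    unfold lineStep at this
    cases hb : Nat.beq j root
    · rw [hb, cond_false] at this
      simp only [Bool.and_eq_true, Nat.blt_eq, Bool.not_eq_true', Nat.beq_eq] at this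
      obtain ⟨⟨⟨⟨hs, hlt⟩, hc4⟩, hc0⟩, he⟩ := this
      obtain ⟨g, hg, a, ha, e⟩ := ih _ (hk ▸ hlt) (src j) rfl hs
      obtain ⟨s, hs', es⟩ : InG (threeJ3 F ω) ω (bif Nat.beq (via j) 0 then s0 else s1) := by
        cases Nat.beq (via j) 0
        · exact inG_gen hω (a := 1) (by norm_num)
        · exact inG_gen hω (a := 0) (by norm_num)
      have hc1 : 1 ≤ sc j := Nat.pos_of_ne_zero (Nat.ne_of_beq_eq_false hc0)
      obtain ⟨b, hb', eb⟩ := vec_scl (F := F) hω (hL j hj) hc1 (by omega : sc j ≤ 3)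
      refine ⟨s * g, (threeJ3 F ω).mul_mem hs' hg, a * b, mul_ne_zero ha hb', ?_⟩
      rw [Units.val_mul, ← Matrix.mulVec_mulVec, e, Matrix.mulVec_smul, es, ← mv_spec hω,
        he, eb, smul_smul]
    · rw [Nat.eq_of_beq_eq_true hb]
      exact ⟨1, one_mem _, 1, one_ne_zero, by simp⟩

include hω in
theorem exists_code (f : F9 → F) (hF : Fintype.card F = 4) : ∃ v, v < 2 ^ 18 ∧ vec F ω v = f := by
  classical
  obtain ⟨w0, w1, w2⟩ := omega_facts hω
  have hbij : Function.Bijective fun v : Fin (2 ^ 18) => vec F ω v := by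
    rw [Fintype.bijective_iff_injective_and_card]
    refine ⟨fun a b h => Fin.ext (vec_injOn w0 w1 w2 a.2 b.2 h), ?_⟩
    rw [Fintype.card_fin, Fintype.card_fun, hF]
    rfl
  obtain ⟨v, hv⟩ := hbij.2 f
  exact ⟨v, v.2, hv⟩

include hω in
theorem sum_cubes {v : Nat} (hv : v < 2 ^ 18) :
    ∑ z, (vec F ω v z) ^ 3 = bit F (parity (mask v)) := by
  have h3 : ω ^ 3 = 1 := by linear_combination (ω - 1) * hω
  have h1 : (1 + ω) ^ 3 = 1 := by
    have : (2 : F) = 0 := CharTwo.two_eq_zero
    linear_combination 3 * hω + h3 + (-1 : F) * this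
  have key : ∀ z, (vec F ω v z) ^ 3 = bit F ((mask v).testBit (pos z)) := by
    intro z
    rw [mask_testBit v (pos_lt z)]
    unfold vec
    cases v.testBit (pos z) <;> cases v.testBit (pos z + 9) <;> simp [bit, h3, h1]
  rw [Finset.sum_congr rfl fun z _ => key z, sum_pos (fun i => bit F ((mask v).testBit i)),
    parity_spec ⟨_, mask_lt hv⟩]
  simp only [bit_xor]

include hω in
/-- The isotropic vectors form one orbit of lines. -/
theorem iso_transitive (hF : Fintype.card F = 4) (f g : F9 → F) (hf : f ≠ 0) (hg : g ≠ 0)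
    (hf3 : ∑ z, f z ^ 3 = 0) (hg3 : ∑ z, g z ^ 3 = 0) :
    ∃ x ∈ threeJ3 F ω, ∃ c : F, c ≠ 0 ∧ (x : Matrix F9 F9 F) *ᵥ f = c • g := by
  have hiso : ∀ j, j < 43605 → iso j < 2 ^ 18 := fun j _ => by
    unfold iso CfsgLib.SporRecognition.CosetCert.field
    exact Nat.lt_succ_of_le Nat.and_le_right
  have reach : ∀ f : F9 → F, f ≠ 0 → ∑ z, f z ^ 3 = 0 → ∃ x ∈ threeJ3 F ω, ∃ c : F, c ≠ 0 ∧
      (x : Matrix F9 F9 F) *ᵥ vec F ω (iso 1947) = c • f := by
    intro f hf hf3
    obtain ⟨v, hv, rfl⟩ := exists_code hω f hF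
    have hv0 : v ≠ 0 := by rintro rfl; exact hf vec_zero
    have hcases : ∃ c, 1 ≤ c ∧ c ≤ 3 ∧ normd (scl c v) = true := by
      rcases exists_normd hv hv0 with h | h | h
      · exact ⟨1, le_rfl, by norm_num, h⟩
      · exact ⟨2, by norm_num, by norm_num, h⟩
      · exact ⟨3, by norm_num, le_rfl, h⟩
    obtain ⟨c, hc1, hc3, hn⟩ := hcases
    obtain ⟨a, ha, ea⟩ := vec_scl (F := F) hω hv hc1 hc3
    have hw := scl_lt (c := c) hv
    have hpar : parity (mask (scl c v)) = false := by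
      have hs : ∑ z, (vec F ω (scl c v) z) ^ 3 = 0 := by
        rw [ea]
        simp only [Pi.smul_apply, smul_eq_mul, mul_pow, ← Finset.mul_sum, hf3, mul_zero]
      rw [sum_cubes hω hw] at hs
      cases h : parity (mask (scl c v))
      · rfl
      · rw [h] at hs; simp [bit] at hs
    have hcv := allBelow_spec cov_ok (scl c v) (by simpa using hw)
    simp only [normd, Bool.and_eq_true] at hn
    rw [covStep, hn.1.2, hn.2, hpar] at hcv
    simp only [Bool.not_false, Bool.and_true, cond_true] at hcv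
    obtain ⟨j, hj, ej⟩ := search_found hcv
    obtain ⟨x, hx, b, hb, eb⟩ := reach_of_tree (F := F) (L := iso) hω hiso (by norm_num : 1947 < 43605)
      (fun j hj => allBelow_spec iso_ok j hj) j hj
    exact ⟨x, hx, b * a, mul_ne_zero hb ha, by rw [eb, ej, ea, smul_smul]⟩
  obtain ⟨x, hx, a, ha, ex⟩ := reach f hf hf3
  obtain ⟨y, hy, b, hb, ey⟩ := reach g hg hg3
  refine ⟨y * x⁻¹, (threeJ3 F ω).mul_mem hy ((threeJ3 F ω).inv_mem hx), a⁻¹ * b, mul_ne_zero (inv_ne_zero ha) hb, ?_⟩
  have hf' : f = a⁻¹ • ((x : Matrix F9 F9 F) *ᵥ vec F ω (iso 1947)) := by rw [ex, inv_smul_smul₀ ha]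
  rw [hf', Matrix.mulVec_smul, Matrix.mulVec_mulVec, ← Units.val_mul, inv_mul_cancel_right, ey, smul_smul]

include hω in
/-- The orbit of the first coordinate line has 23256 lines. -/
theorem eo_orbit (hF : Fintype.card F = 4) : {L : Submodule F (F9 → F) | ∃ g ∈ threeJ3 F ω,
    L = Submodule.span F {(g : Matrix F9 F9 F) *ᵥ (Pi.single (0 : F9) (1 : F) : F9 → F)}}.ncard = 23256 := by
  classical
  have h := fun j hj => allBelow_spec eo_ok j hj
  simp only [eoStep, Bool.and_eq_true, Nat.blt_eq, Bool.not_eq_true'] at h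
  have h0 : vec F ω 1 = (Pi.single (0 : F9) (1 : F) : F9 → F) := by
    funext z
    by_cases hz : z = 0
    · subst hz; simp [vec, bit, pos, show Nat.testBit 1 9 = false from rfl]
    · have hp : pos z ≠ 0 := fun e => hz (pos_inj (w := 0) e)
      rw [Pi.single_eq_of_ne hz]
      simp only [vec]
      rw [Nat.testBit_lt_two_pow (Nat.one_lt_two_pow hp), Nat.testBit_lt_two_pow (Nat.one_lt_two_pow (by omega))]
      simp [bit]
  have hlt : ∀ j, j < 23256 → eo j < 2 ^ 18 := fun j hj => by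
    have := (h j hj).1.1.1.1.1.1.1.1.1.2
    simp only [normd, Bool.and_eq_true, Nat.blt_eq] at this
    exact this.1.1
  have he0 : eo 0 = 1 := by
    have := (h 0 (by norm_num)).1.1.1.1.1.1.1.1.2
    simpa using this
  let line : Fin 23256 → Submodule F (F9 → F) := fun j => Submodule.span F {vec F ω (eo j)}
  have hmono : ∀ a b, a < b → b < 23256 → eo a < eo b := by
    intro a b hab
    induction b, hab using Nat.le_induction with
    | base =>
      intro hb
      have := (h (a + 1) hb).1.1.1.1.1.1.1.1.2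
      rw [show Nat.beq (a + 1) 0 = false from rfl, cond_false, Nat.blt_eq] at this
      exact this
    | succ b hb ih =>
      intro hN
      have := (h (b + 1) hN).1.1.1.1.1.1.1.1.2
      rw [show Nat.beq (b + 1) 0 = false from rfl, cond_false, Nat.blt_eq] at this
      exact (ih (by omega)).trans this
  obtain ⟨w0, w1, w2⟩ := omega_facts hω
  have hne : ∀ j, j < 23256 → vec F ω (eo j) ≠ 0 := by
    intro j hj e
    have hn := (h j hj).1.1.1.1.1.1.1.1.1.2
    have : eo j = 0 := vec_injOn w0 w1 w2 (hlt j hj) (by norm_num) (e.trans vec_zero.symm)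
    rw [this] at hn
    exact absurd hn (by decide +kernel)
  have hinj : Function.Injective line := by
    intro i j hij
    obtain ⟨c, hc⟩ := Submodule.mem_span_singleton.mp
      (show vec F ω (eo i) ∈ line j from hij ▸ Submodule.mem_span_singleton_self _)
    have hc0 : c ≠ 0 := fun e => hne i i.2 (by rw [← hc, e, zero_smul])
    have hc3 : c ^ 3 = 1 := by
      have := FiniteField.pow_card_sub_one_eq_one c hc0
      rwa [hF] at this
    have h3 : ω ^ 3 = 1 := by linear_combination (ω - 1) * hω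
    have hprod : (c - 1) * ((c - ω) * (c - ω * ω)) = 0 := by
      linear_combination hc3 - h3 + (-c ^ 2 + c) * hω + c * h3 - c
    have hk : ∃ k, 1 ≤ k ∧ k ≤ 3 ∧ vec F ω (eo i) = vec F ω (scl k (eo j)) := by
      rcases mul_eq_zero.mp hprod with e | e
      · exact ⟨1, le_rfl, by norm_num, by rw [scl_one, ← hc, sub_eq_zero.mp e, one_smul]⟩
      rcases mul_eq_zero.mp e with e | e
      · exact ⟨2, by norm_num, by norm_num, by rw [scl_two, vec_om hω (hlt j j.2), ← hc, sub_eq_zero.mp e]⟩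
      · exact ⟨3, by norm_num, le_rfl, by
          rw [scl_three, vec_om hω (om_lt (hlt j j.2)), vec_om hω (hlt j j.2), smul_smul, ← hc, sub_eq_zero.mp e]⟩
    obtain ⟨k, hk1, hk3, hk⟩ := hk
    have heq : eo i = eo j := eq_of_normd_scl (h i i.2).1.1.1.1.1.1.1.1.1.2 (h j j.2).1.1.1.1.1.1.1.1.1.2
      ⟨hk1, hk3⟩ (vec_injOn w0 w1 w2 (hlt i i.2) (scl_lt (hlt j j.2)) hk)
    rcases lt_trichotomy (i : Nat) j with hl | he | hl
    · exact absurd heq (hmono _ _ hl j.2).ne
    · exact Fin.ext he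
    · exact absurd heq (hmono _ _ hl i.2).ne'
  have hset : {L : Submodule F (F9 → F) | ∃ g ∈ threeJ3 F ω,
      L = Submodule.span F {(g : Matrix F9 F9 F) *ᵥ (Pi.single (0 : F9) (1 : F) : F9 → F)}} = Set.range line := by
    ext L
    constructor
    · rintro ⟨g, hg, rfl⟩
      have hP : ∀ x : threeJ3 F ω, x ∈ Subgroup.closure (genSet F ω) → x ∈ {x : threeJ3 F ω |
          ∃ k : Fin 23256, ∃ c : F, c ≠ 0 ∧
            ((x : GL F9 F) : Matrix F9 F9 F) *ᵥ vec F ω 1 = c • vec F ω (eo k)} := by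
        refine closure_subset_of_left_closed _ _ ?_ ?_
        · exact ⟨⟨0, by norm_num⟩, 1, one_ne_zero, by simp [he0]⟩
        · rintro s hs x ⟨k, c, hc, e⟩
          have hk := h k k.2
          have key : ∀ (t cc : Nat → Nat) (S : Nat), t k < 23256 → cc k < 4 → Nat.beq (cc k) 0 = false →
              Nat.beq (mv S (eo k)) (scl (cc k) (eo (t k))) = true →
              ((s : GL F9 F) : Matrix F9 F9 F) = mat F ω S → s * x ∈ {x : threeJ3 F ω |
              ∃ k : Fin 23256, ∃ c : F, c ≠ 0 ∧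
                ((x : GL F9 F) : Matrix F9 F9 F) *ᵥ vec F ω 1 = c • vec F ω (eo k)} := by
            intro t cc S ht hc4 hc0 he hS
            have hc1 : 1 ≤ cc k := Nat.pos_of_ne_zero (Nat.ne_of_beq_eq_false hc0)
            obtain ⟨b, hb, eb⟩ := vec_scl (F := F) hω (hlt _ ht) hc1 (by omega : cc k ≤ 3)
            refine ⟨⟨t k, ht⟩, c * b, mul_ne_zero hc hb, ?_⟩
            rw [Subgroup.coe_mul, Units.val_mul, ← Matrix.mulVec_mulVec, e, Matrix.mulVec_smul, hS,
              ← mv_spec hω, Nat.eq_of_beq_eq_true he, eb, smul_smul]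
          rcases hs with hs | hs
          · exact key eot0 eoc0 s0 hk.1.1.1.1.1.1.1.2 hk.1.1.1.1.1.1.2 hk.1.1.1.1.1.2 hk.1.1.1.1.2 hs
          · exact key eot1 eoc1 s1 hk.1.1.1.2 hk.1.1.2 hk.1.2 hk.2 hs
      obtain ⟨k, c, hc, e⟩ := hP ⟨g, hg⟩ (by rw [closure_genSet hω]; trivial)
      refine ⟨k, ?_⟩
      rw [← h0, e]
      exact (Submodule.span_singleton_smul_eq (IsUnit.mk0 c hc) _).symm
    · rintro ⟨j, rfl⟩
      obtain ⟨g, hg, a, ha, e⟩ := reach_of_tree (F := F) (L := eo) hω hlt (by norm_num : 0 < 23256)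
        (fun j hj => (h j hj).1.1.1.1.1.1.1.1.1.1) j j.2
      refine ⟨g, hg, ?_⟩
      rw [← h0, ← he0, e]
      exact (Submodule.span_singleton_smul_eq (IsUnit.mk0 a ha) _).symm
  rw [hset, Set.ncard_range_of_injective hinj, Nat.card_fin]

end

end CfsgLib.SporadicB.J3
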